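import Cfsg.Agent.Mathieu.Classes
import Cfsg.Agent.Mathieu.OctadFix
import Cfsg.Agent.Mathieu.Subgroups
import Cfsg.Agent.Eq.Def_Sporadic_a
import Cfsg.Agent.Eq.Def_Spor_Mathieu
import Mathlib.GroupTheory.SpecificGroups.Cyclic

/-!
# Local subgroups of the two large Mathieu groups, as needed for their 2-blocks

Involution centralizers have a normal 2-subgroup containing its own centralizer there, and the
normalizers of the Sylow subgroups of the large prime orders are small.
-/

set_option autoImplicit false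
set_option linter.style.haveILetI false

open Cfsg CfsgLib.Golay CfsgLib.Mathieu
open scoped Pointwise

namespace CfsgLib.Mathieu.BlockLocal

/-- Elements of a group of permutations trivial once they fix one point of a set on which the
group acts give a divisor of the size of the set. -/
theorem card_dvd_of_semiregular {α : Type*} [Fintype α] {K : Subgroup (Equiv.Perm α)}
    (s : Finset α) (hs : ∀ g ∈ K, ∀ a ∈ s, g a ∈ s)
    (hfree : ∀ g ∈ K, ∀ a ∈ s, g a = a → g = 1) : Nat.card K ∣ s.card := by
  classical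
  letI : MulAction K s :=
    { smul := fun g a => ⟨(g : Equiv.Perm α) a, hs g g.2 a a.2⟩
      one_smul := fun a => Subtype.ext rfl
      mul_smul := fun g h a => Subtype.ext rfl }
  have hst : ∀ a : s, MulAction.stabilizer K a = ⊥ := fun a => by
    rw [eq_bot_iff]
    intro g hg
    exact Subtype.ext (hfree g g.2 a a.2 (congrArg Subtype.val hg))
  have e := Nat.card_congr (MulAction.selfEquivSigmaOrbitsQuotientStabilizer K s)
  haveI : Fintype (Quotient (MulAction.orbitRel K s)) := Fintype.ofFinite _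
  rw [Nat.card_sigma, Nat.card_eq_finsetCard] at e
  rw [e]
  refine Finset.dvd_sum fun ω _ => ?_
  rw [hst, ← Subgroup.index_eq_card, Subgroup.index_bot]

/-- The order of a group fixing a set `s` is the order of a pointwise stabiliser times a divisor of
the factorial. -/
theorem card_dvd_factorial_mul {α : Type*} [Fintype α] {C : Subgroup (Equiv.Perm α)}
    (s : Finset α) (hs : ∀ g ∈ C, ∀ a, g a ∈ s ↔ a ∈ s) {m : ℕ}
    (hK : Nat.card ↥(C ⊓ fixingSubgroup (Equiv.Perm α) (s : Set α)) ∣ m) :
    Nat.card C ∣ s.card.factorial * m := by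
  classical
  let f : C →* Equiv.Perm s :=
    { toFun := fun g => (g : Equiv.Perm α).subtypePerm (fun a => hs g g.2 a)
      map_one' := rfl
      map_mul' := fun _ _ => rfl }
  have hker : f.ker.map C.subtype = C ⊓ fixingSubgroup (Equiv.Perm α) (s : Set α) := by
    ext g
    simp only [Subgroup.mem_map, MonoidHom.mem_ker, Subgroup.mem_inf, mem_fixingSubgroup_iff]
    constructor
    · rintro ⟨c, hc, rfl⟩
      exact ⟨c.2, fun a ha => congrArg Subtype.val (Equiv.ext_iff.1 hc ⟨a, ha⟩)⟩
    · rintro ⟨hg, hfix⟩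
      exact ⟨⟨g, hg⟩, Equiv.ext fun a => Subtype.ext (hfix a a.2), rfl⟩
  rw [← Subgroup.card_mul_index f.ker, Subgroup.index_ker]
  rw [← hker, Subgroup.card_map_of_injective C.subtype_injective] at hK
  rw [mul_comm]
  refine mul_dvd_mul ?_ hK
  refine (Subgroup.card_subgroup_dvd_card f.range).trans ?_
  rw [Nat.card_perm, Nat.card_eq_finsetCard]

/-- The number of fixed points of an element of `M24` of order 5, 7, 11 or 23. -/
theorem card_fixedPts_big {x : Equiv.Perm GolayPt} (hx : x ∈ M24) {q f : ℕ} (hq : q.Prime)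
    (ho : orderOf x = q) (hf : f < 9) (hfq : (24 - f) % q = 0) (h5 : 5 ≤ q) :
    (fixedPts x).card = f := by
  obtain ⟨n, hn⟩ := card_fixedPts_prime hq ho
  have hne : x ≠ 1 := fun h => hq.ne_one (by rw [← ho, h, orderOf_one])
  have h9 : (fixedPts x).card < 9 := by
    by_contra h
    exact hne (eq_one_of_nine_fixed hx (by omega))
  by_contra hne'
  have h1 : q ∣ 24 - f := Nat.dvd_of_mod_eq_zero hfq
  have h2 : q ∣ 24 - (fixedPts x).card := ⟨n + 1, by omega⟩
  rcases Nat.lt_or_gt_of_ne hne' with h | h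
  · have := Nat.le_of_dvd (by omega) (Nat.dvd_sub h2 h1)
    have hlt : q < 9 := by omega
    interval_cases q <;> first | omega | (norm_num at hq)
  · have := Nat.le_of_dvd (by omega) (Nat.dvd_sub h1 h2)
    have hlt : q < 9 := by omega
    interval_cases q <;> first | omega | (norm_num at hq)

/-- The centraliser of an element of large prime order: its part fixing all fixed points has order
dividing the number of moved points, and its order is controlled by the fixed points moved. -/
theorem card_centralizer_dvd {H : Subgroup (Equiv.Perm GolayPt)} (hH : H ≤ M24)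
    {x : Equiv.Perm GolayPt} {q : ℕ} (hq : q.Prime) (ho : orderOf x = q)
    (hqf : 9 ≤ q + (fixedPts x).card) (F : Finset GolayPt) (hF : F ⊆ fixedPts x)
    (hfix : ∀ g ∈ H, ∀ p ∈ fixedPts x, p ∉ F → g p = p) :
    ∃ m, m ∣ 24 - (fixedPts x).card ∧
      (∀ r : ℕ, r.Prime → r ∣ m → ∃ g ∈ H, orderOf g = r ∧ fixedPts g = fixedPts x) ∧
      Nat.card ↥(H ⊓ Subgroup.centralizer {x}) ∣ F.card.factorial * m := by
  classical
  set C := H ⊓ Subgroup.centralizer {x} with hC
  have hcomm : ∀ g ∈ C, ∀ a, x (g a) = g (x a) := fun g hg a => by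
    rw [← Equiv.Perm.mul_apply, ← Equiv.Perm.mul_apply,
      Subgroup.mem_centralizer_iff.1 hg.2 x rfl]
  have hF' : ∀ g ∈ C, ∀ a, g a ∈ F ↔ a ∈ F := by
    intro g hg a
    have hiff : g a ∈ fixedPts x ↔ a ∈ fixedPts x := by
      rw [mem_fixedPts, mem_fixedPts, hcomm g hg]
      exact g.injective.eq_iff
    constructor
    · intro h
      have hax : a ∈ fixedPts x := hiff.1 (hF h)
      by_contra ha
      rw [hfix g hg.1 a hax ha] at h
      exact ha h
    · intro h
      by_contra ha
      have h2 := hfix g hg.1 (g a) (hiff.2 (hF h)) ha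
      exact ha (by rw [g.injective h2]; exact h)
  set K := C ⊓ fixingSubgroup (Equiv.Perm GolayPt) (F : Set GolayPt) with hK
  have hKfix : ∀ g ∈ K, ∀ p ∈ fixedPts x, g p = p := by
    intro g hg p hp
    by_cases hpF : p ∈ F
    · exact (mem_fixingSubgroup_iff _).1 hg.2 p hpF
    · exact hfix g hg.1.1 p hp hpF
  have hfree : ∀ g ∈ K, ∀ a ∉ fixedPts x, g a = a → g = 1 := by
    intro g hg a ha hga
    refine eq_one_of_nine_fixed (hH hg.1.1) ?_
    have hsub : fixedPts x ∪ (orbSet (Subgroup.zpowers x) a).toFinset ⊆ fixedPts g := by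
      intro p hp
      rw [Finset.mem_union, Set.mem_toFinset] at hp
      rcases hp with hp | ⟨k, hk, rfl⟩
      · exact mem_fixedPts.2 (hKfix g hg p hp)
      · obtain ⟨i, rfl⟩ := hk
        have hc : Commute g (x ^ i) :=
          (show Commute g x from (Subgroup.mem_centralizer_iff.1 hg.1.2 x rfl).symm).zpow_right i
        rw [mem_fixedPts, ← Equiv.Perm.mul_apply, hc.eq, Equiv.Perm.mul_apply, hga]
    refine le_trans ?_ (Finset.card_le_card hsub)
    rw [Finset.card_union_of_disjoint, ← Set.ncard_eq_toFinset_card',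
      ncard_orbSet_zpowers hq ho (fun h => ha (mem_fixedPts.2 h))]
    · omega
    · rw [Finset.disjoint_left]
      intro p hp hp'
      rw [Set.mem_toFinset] at hp'
      exact orbSet_zpowers_ne_fixed hp' (fun h => ha (mem_fixedPts.2 h)) (mem_fixedPts.1 hp)
  refine ⟨Nat.card K, ?_, fun r hr hdvd => ?_, card_dvd_factorial_mul F hF' dvd_rfl⟩
  · have := card_dvd_of_semiregular (K := K) (fixedPts x)ᶜ (fun g hg a ha => by
      rw [Finset.mem_compl] at ha ⊢
      intro h
      exact ha (mem_fixedPts.2 (g.injective (by rw [← hcomm g hg.1]; exact mem_fixedPts.1 h))))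
      (fun g hg a ha => hfree g hg a (Finset.mem_compl.1 ha))
    rwa [Finset.card_compl, show Fintype.card GolayPt = 24 from rfl] at this
  · haveI : Fact r.Prime := ⟨hr⟩
    obtain ⟨g, hg⟩ := exists_prime_orderOf_dvd_card' r hdvd
    rw [← Subgroup.orderOf_coe] at hg
    refine ⟨g, g.2.1.1, hg, Finset.ext fun p => ⟨fun hp => ?_, fun hp => mem_fixedPts.2
      (hKfix g g.2 p hp)⟩⟩
    by_contra hpx
    have := hfree g g.2 p hpx (mem_fixedPts.1 hp)
    rw [this, orderOf_one] at hg
    exact hr.ne_one hg.symm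

/-- The pointwise stabiliser of the octad of fixed points gives the subgroup wanted. -/
theorem exists_core_octad {t : Equiv.Perm GolayPt} (ht : t ∈ M24)
    (ho : fixedPts t ∈ octads) :
    ∀ c ∈ M24, c * t = t * c →
      (∀ e ∈ octPointFix (fixedPts t), e * t = t * e ∧ c * e * c⁻¹ ∈ octPointFix (fixedPts t)) ∧
      ((∀ e ∈ octPointFix (fixedPts t), e * c = c * e) → c ∈ octPointFix (fixedPts t)) := by
  classical
  set o := fixedPts t with hodef
  obtain ⟨hcard, hexp⟩ := octPointFix_spec ho
  have htE : t ∈ octPointFix o := ⟨ht, (mem_fixingSubgroup_iff _).2 fun p hp =>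
    mem_fixedPts.1 (Finset.mem_coe.1 hp)⟩
  intro c hc hct
  have hco : c • o = o := by
    have h := fixedPts_conj c t
    rw [hct, mul_inv_cancel_right] at h
    exact h.symm
  refine ⟨fun e he => ⟨?_, ?_⟩, fun hcent => ?_⟩
  · have h := hexp (e * t) (mul_mem he htE)
    have he' : e⁻¹ = e := inv_eq_of_mul_eq_one_left (hexp e he)
    have ht' : t⁻¹ = t := inv_eq_of_mul_eq_one_left (hexp t htE)
    calc e * t = (e * t)⁻¹ := (inv_eq_of_mul_eq_one_left h).symm
      _ = t * e := by rw [mul_inv_rev, he', ht']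
  · have h := (conj_mem_octPointFix (k := e) (o := o) hc).1 he
    rwa [hco] at h
  -- the pointwise stabiliser is regular on the remaining sixteen points
  have hout : ∀ g ∈ M24, g • o = o → ∀ a ∉ o, g a ∉ o := fun g _ hgo a ha h => by
    rw [← hgo, ← Equiv.Perm.smul_def, Finset.smul_mem_smul_finset_iff] at h
    exact ha h
  have hEo : ∀ e ∈ octPointFix o, e • o = o := fun e he => by
    refine Finset.eq_of_subset_of_card_le (fun p hp => ?_) (Finset.card_smul_finset e o).ge
    obtain ⟨q, hq, rfl⟩ := Finset.mem_smul_finset.1 hp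
    rwa [(mem_fixingSubgroup_iff _).1 he.2 q (Finset.mem_coe.2 hq)]
  have h8 : o.card = 8 := ho.2
  obtain ⟨a, ha⟩ : ∃ a, a ∉ o := by
    by_contra! h
    have : o = Finset.univ := Finset.eq_univ_of_forall h
    rw [this] at h8
    exact absurd h8 (by decide)
  have hfree : ∀ g ∈ M24, (∀ p ∈ o, g p = p) → ∀ b ∉ o, g b = b → g = 1 := by
    intro g hg hgo b hb hgb
    refine eq_one_of_nine_fixed hg ?_
    have : insert b o ⊆ fixedPts g := by
      intro p hp
      rcases Finset.mem_insert.1 hp with rfl | hp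
      · exact mem_fixedPts.2 hgb
      · exact mem_fixedPts.2 (hgo p hp)
    refine le_trans ?_ (Finset.card_le_card this)
    rw [Finset.card_insert_of_notMem hb, h8]
  let orb : octPointFix o → ↥(oᶜ) := fun e =>
    ⟨(e : Equiv.Perm GolayPt) a, Finset.mem_compl.2 (hout e e.2.1 (hEo e e.2) a ha)⟩
  have hinj : Function.Injective orb := by
    intro e e' h
    have h' : ((e'⁻¹ * e : octPointFix o) : Equiv.Perm GolayPt) a = a := by
      have := congrArg Subtype.val h
      simp only [orb] at this
      simp only [Subgroup.coe_mul, InvMemClass.coe_inv, Equiv.Perm.mul_apply, this,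
        Equiv.Perm.coe_inv, Equiv.symm_apply_apply]
    have h1 := hfree _ (e'⁻¹ * e).2.1 (fun p hp => (mem_fixingSubgroup_iff _).1 (e'⁻¹ * e).2.2 p
      (Finset.mem_coe.2 hp)) a ha h'
    exact (inv_mul_eq_one.1 (Subtype.ext h1 : e'⁻¹ * e = 1)).symm
  haveI : Fintype (octPointFix o) := Fintype.ofFinite _
  have hsurj : Function.Surjective orb := by
    refine ((Fintype.bijective_iff_injective_and_card orb).2 ⟨hinj, ?_⟩).2
    rw [← Nat.card_eq_fintype_card, hcard, Fintype.card_coe, Finset.card_compl, h8]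
    rfl
  obtain ⟨e, he⟩ := hsurj ⟨c a, Finset.mem_compl.2 (hout c hc hco a ha)⟩
  have hea : (e : Equiv.Perm GolayPt) a = c a := congrArg Subtype.val he
  have hfix : ((e : Equiv.Perm GolayPt)⁻¹ * c) = 1 := by
    refine eq_one_of_nine_fixed (M24.mul_mem (M24.inv_mem e.2.1) hc) ?_
    have hsub : oᶜ ⊆ fixedPts ((e : Equiv.Perm GolayPt)⁻¹ * c) := by
      intro b hb
      obtain ⟨e', he'⟩ := hsurj ⟨b, hb⟩
      have hb' : (e' : Equiv.Perm GolayPt) a = b := congrArg Subtype.val he'
      have hee : (e' : Equiv.Perm GolayPt) * e = e * e' := by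
        calc (e' : Equiv.Perm GolayPt) * e = ((e' : Equiv.Perm GolayPt) * e)⁻¹ :=
              (inv_eq_of_mul_eq_one_left (hexp _ (mul_mem e'.2 e.2))).symm
          _ = (e : Equiv.Perm GolayPt) * e' := by
            rw [mul_inv_rev, inv_eq_of_mul_eq_one_left (hexp _ e.2),
              inv_eq_of_mul_eq_one_left (hexp _ e'.2)]
      rw [mem_fixedPts, Equiv.Perm.mul_apply, Equiv.Perm.inv_eq_iff_eq, ← hb',
        ← Equiv.Perm.mul_apply, ← hcent _ e'.2, Equiv.Perm.mul_apply, ← hea,
        ← Equiv.Perm.mul_apply, hee, Equiv.Perm.mul_apply]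
    refine le_trans ?_ (Finset.card_le_card hsub)
    rw [Finset.card_compl, h8]
    decide
  rw [inv_mul_eq_one] at hfix
  rw [← hfix]
  exact e.2

/-- For a fixed-point-free involution the kernel of the action on the six tetrads is a suitable
`2`-group. -/
theorem exists_core_free {t : Equiv.Perm GolayPt} (ht : t ∈ M24) (h2 : orderOf t = 2)
    (h0 : ∀ p, t p ≠ p) :
    ∃ K ≤ centM24 t, IsPGroup 2 K ∧
      (∀ c ∈ centM24 t, ∀ k ∈ K, c * k * c⁻¹ ∈ K) ∧
      ∀ x ∈ centM24 t, ∀ r : ℕ, r.Prime → r ≠ 2 → orderOf x = r → ¬ ∀ k ∈ K, x * k = k * x := by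
  classical
  obtain ⟨hcard, -, S, hS, -, hstab⟩ := centFree ht h2 h0
  set C := centM24 t
  have hmem : ∀ c ∈ C, ∀ T, c • T ∈ S ↔ T ∈ S := fun c hc T => by
    conv_lhs => rw [← hstab c hc]
    exact Finset.smul_mem_smul_finset_iff c
  let f : C →* Equiv.Perm S :=
    { toFun := fun c => (MulAction.toPerm (c : Equiv.Perm GolayPt) :
        Equiv.Perm (Finset GolayPt)).subtypePerm (fun T => hmem c c.2 T)
      map_one' := Equiv.ext fun T => Subtype.ext (one_smul (Equiv.Perm GolayPt) (T : Finset GolayPt))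
      map_mul' := fun a b => Equiv.ext fun T => Subtype.ext
        (mul_smul (a : Equiv.Perm GolayPt) (b : Equiv.Perm GolayPt) (T : Finset GolayPt)) }
  set K := f.ker.map C.subtype
  have hKC : K ≤ C := Subgroup.map_subtype_le _
  have hKfix : ∀ k ∈ K, ∀ T ∈ S, k • T = T := by
    rintro _ ⟨k, hk, rfl⟩ T hT
    exact congrArg Subtype.val (Equiv.ext_iff.1 hk ⟨T, hT⟩)
  have hKmk : ∀ c ∈ C, (∀ T ∈ S, c • T = T) → c ∈ K := fun c hc h =>
    ⟨⟨c, hc⟩, Equiv.ext fun T => Subtype.ext (h T T.2), rfl⟩
  have hcov : ∀ p : GolayPt, ∃ T ∈ S, p ∈ T := by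
    have hU : (S.biUnion fun u => u) = Finset.univ := by
      refine Finset.eq_univ_of_card _ ?_
      rw [Finset.card_biUnion (fun u hu v hv huv => sextet_disjoint hS hu hv huv),
        Finset.sum_congr rfl fun u hu => (show u.card = 4 from hS.2.1 u hu),
        Finset.sum_const, hS.1]
      rfl
    intro p
    obtain ⟨T, hT, hp⟩ := Finset.mem_biUnion.1 (show p ∈ (S.biUnion fun u => u) by rw [hU]; exact Finset.mem_univ p)
    exact ⟨T, hT, hp⟩
  have hKcard : 720 * Nat.card K ≥ 7680 := by
    have h : Nat.card f.range ∣ 720 := by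
      refine (Subgroup.card_subgroup_dvd_card _).trans ?_
      rw [Nat.card_perm, Nat.card_eq_finsetCard, hS.1]
      rfl
    have h' : Nat.card C = Nat.card f.ker * Nat.card f.range := by
      rw [← Subgroup.index_ker, Subgroup.card_mul_index]
    rw [show Nat.card K = Nat.card f.ker from
      Subgroup.card_map_of_injective C.subtype_injective]
    have := Nat.le_of_dvd (by norm_num) h
    calc 720 * Nat.card f.ker ≥ Nat.card f.range * Nat.card f.ker := Nat.mul_le_mul_right _ this
      _ = 7680 := by rw [mul_comm, ← h', hcard]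
  -- no element of odd prime order lies in `K`
  have hodd : ∀ x ∈ K, ∀ r : ℕ, r.Prime → r ≠ 2 → orderOf x ≠ r := by
    intro x hx r hr hr2 ho
    haveI : Fact r.Prime := ⟨hr⟩
    have hxM : x ∈ M24 := (hKC hx).1
    have hne : x ≠ 1 := fun h => hr.ne_one (by rw [← ho, h, orderOf_one])
    have horb : ∀ p, x p ≠ p → ∀ T ∈ S, p ∈ T → r ≤ 4 := by
      intro p hp T hT hpT
      rw [← hS.2.1 T hT, ← ncard_orbSet_zpowers hr ho hp, ← Set.ncard_coe_finset T]
      refine Set.ncard_le_ncard ?_ (Finset.finite_toSet T)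
      rintro _ ⟨k, hk, rfl⟩
      have hkT := hKfix k ((Subgroup.zpowers_le.2 hx) hk) T hT
      rw [Finset.mem_coe, ← hkT]
      exact Finset.smul_mem_smul_finset hpT
    obtain ⟨p, hp⟩ : ∃ p, x p ≠ p := by
      by_contra! h
      exact hne (Equiv.ext h)
    obtain ⟨T, hT, hpT⟩ := hcov p
    have hr3 : r = 3 := by
      have := horb p hp T hT hpT
      have := hr.two_le
      interval_cases r <;> first | rfl | omega | (norm_num at hr)
    subst hr3
    have hct : Commute x t := (mem_centM24.1 (hKC hx)).2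
    have hfx : (fixedPts x).card = 0 := by
      rcases commute_three_two hxM ht ho h2 hct with ⟨-, h⟩ | ⟨h, -⟩
      · obtain ⟨y, hy⟩ := Finset.card_pos.1 (h ▸ (by norm_num) : 0 < (fixedPts t).card)
        exact absurd (mem_fixedPts.1 hy) (h0 y)
      · exact h
    -- yet an element of order three fixes a point in each tetrad
    let g : Equiv.Perm T := x.subtypePerm fun a => by
      conv_lhs => rw [← hKfix x hx T hT, ← Equiv.Perm.smul_def]
      exact Finset.smul_mem_smul_finset_iff x
    have hx3 : x ^ 3 = 1 := by rw [← ho, pow_orderOf_eq_one]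
    have hg3 : g ^ (3 ^ 1) = 1 := by
      ext a
      simp [g, Equiv.Perm.subtypePerm_pow, hx3]
    obtain ⟨a, ha⟩ := Equiv.Perm.exists_fixed_point_of_prime (p := 3) (n := 1)
      (by rw [Fintype.card_coe, hS.2.1 T hT]; norm_num) hg3
    have : (a : GolayPt) ∈ fixedPts x := mem_fixedPts.2 (congrArg Subtype.val ha)
    rw [Finset.card_eq_zero.1 hfx] at this
    exact absurd this (Finset.notMem_empty _)
  have hK2 : IsPGroup 2 K := by
    refine IsPGroup.of_card (n := (Nat.card K).primeFactorsList.length) ?_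
    refine Nat.eq_prime_pow_of_unique_prime_dvd Nat.card_pos.ne' fun {r} hr hd => ?_
    by_contra hr2
    haveI : Fact r.Prime := ⟨hr⟩
    obtain ⟨y, hy⟩ := exists_prime_orderOf_dvd_card' r hd
    exact hodd y y.2 r hr hr2 ((Subgroup.orderOf_coe y).trans hy)
  refine ⟨K, hKC, hK2, fun c hc k hk => ?_, fun x hxC r hr hr2 ho hcomm => ?_⟩
  · refine hKmk _ (C.mul_mem (C.mul_mem hc (hKC hk)) (C.inv_mem hc)) fun T hT => ?_
    rw [mul_smul, mul_smul, hKfix k hk _ ((hmem _ (C.inv_mem hc) T).2 hT), smul_inv_smul]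
  -- an element of odd prime order centralising `K` fixes every tetrad
  refine hodd x (hKmk x hxC fun T hT => ?_) r hr hr2 ho
  by_contra hne
  have hxM := hxC.1
  haveI : Fact r.Prime := ⟨hr⟩
  have hne2 : (x ^ 2) • T ≠ T := by
    intro h
    apply hne
    have hk : r.Coprime 2 := (Nat.coprime_primes hr Nat.prime_two).2 hr2
    obtain ⟨j, hj⟩ := exists_pow_eq_self_of_coprime (x := x) (n := 2) (by rw [ho]; exact hk.symm)
    have hst : x ^ 2 ∈ MulAction.stabilizer (Equiv.Perm GolayPt) T := h
    have := pow_mem hst j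
    rw [hj] at this
    exact this
  have hne3 : (x ^ 2) • T ≠ x • T := by
    rw [pow_two, mul_smul]
    exact fun h => hne (MulAction.injective x h)
  have hxT : x • T ∈ S := (hmem x hxC T).2 hT
  have hx2T : (x ^ 2) • T ∈ S := (hmem _ (C.pow_mem hxC 2) T).2 hT
  have hzero : ∀ k ∈ K, (∀ a ∈ T, k a = a) → k = 1 := by
    intro k hk hka
    refine eq_one_of_nine_fixed (hKC hk).1 ?_
    have hfix : ∀ y : Equiv.Perm GolayPt, y * k = k * y → ∀ b ∈ y • T, k b = b := by
      intro y hy b hb
      obtain ⟨a, ha, rfl⟩ := Finset.mem_smul_finset.1 hb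
      rw [Equiv.Perm.smul_def, ← Equiv.Perm.mul_apply, ← hy, Equiv.Perm.mul_apply, hka a ha]
    have hsub : T ∪ x • T ∪ (x ^ 2) • T ⊆ fixedPts k := by
      intro b hb
      rw [mem_fixedPts]
      rcases Finset.mem_union.1 hb with hb | hb
      · rcases Finset.mem_union.1 hb with hb | hb
        · exact hka b hb
        · exact hfix x (hcomm k hk) b hb
      · exact hfix (x ^ 2) (Commute.pow_left (hcomm k hk) 2).eq b hb
    refine le_trans ?_ (Finset.card_le_card hsub)
    rw [Finset.card_union_of_disjoint (Finset.disjoint_union_left.2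
        ⟨sextet_disjoint hS hT hx2T (Ne.symm hne2), sextet_disjoint hS hxT hx2T (Ne.symm hne3)⟩),
      Finset.card_union_of_disjoint (sextet_disjoint hS hT hxT (Ne.symm hne)),
      hS.2.1 T hT, hS.2.1 _ hxT, hS.2.1 _ hx2T]
    norm_num
  let g : K →* Equiv.Perm T :=
    { toFun := fun k => (k : Equiv.Perm GolayPt).subtypePerm fun a => by
        conv_lhs => rw [← hKfix k k.2 T hT, ← Equiv.Perm.smul_def]
        exact Finset.smul_mem_smul_finset_iff (k : Equiv.Perm GolayPt)
      map_one' := rfl
      map_mul' := fun _ _ => rfl }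
  have hinj : Function.Injective g := (injective_iff_map_eq_one g).2 fun k hk =>
    Subtype.ext (hzero k k.2 fun a ha => congrArg Subtype.val (Equiv.ext_iff.1 hk ⟨a, ha⟩))
  have hdvd := Subgroup.card_dvd_of_injective g hinj
  rw [Nat.card_perm, Nat.card_eq_finsetCard, hS.2.1 T hT] at hdvd
  obtain ⟨j, hj⟩ := IsPGroup.iff_card.1 hK2
  rw [hj] at hdvd hKcard
  have hj5 : j < 5 := by
    by_contra h
    have := Nat.le_of_dvd (by decide) hdvd
    have h32 : 2 ^ 5 ≤ 2 ^ j := Nat.pow_le_pow_right (by norm_num) (by omega)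
    simp only [Nat.factorial] at this
    omega
  interval_cases j <;> simp_all [Nat.factorial]

/-- The order of the normalizer of a subgroup of prime order divides `q - 1` times that of its
centralizer. -/
theorem card_normalizer_dvd {G : Type*} [Group G] [Finite G] (P : Subgroup G) {q : ℕ}
    [Fact q.Prime] (hP : Nat.card P = q) :
    Nat.card (Subgroup.normalizer (P : Set G)) ∣
      (q - 1) * Nat.card (Subgroup.centralizer (P : Set G)) := by
  haveI : IsCyclic P := isCyclic_of_prime_card hP
  rw [← Subgroup.card_mul_index P.normalizerMonoidHom.ker, Subgroup.index_ker, mul_comm (q - 1)]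
  refine mul_dvd_mul (dvd_of_eq ?_) ?_
  · rw [Subgroup.normalizerMonoidHom_ker]
    exact Nat.card_congr (Subgroup.subgroupOfEquivOfLe
      (Subgroup.centralizer_le_normalizer _)).toEquiv
  · refine (Subgroup.card_subgroup_dvd_card _).trans ?_
    rw [IsCyclic.card_mulAut, hP, Nat.totient_prime Fact.out]

end CfsgLib.Mathieu.BlockLocal
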