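import Cfsg.Agent.Chars.Basic.Linear
import Cfsg.Agent.Chars.Basic.Orthogonality
import Cfsg.Agent.Chars.Brauer.Defect
import Cfsg.Agent.Chars.GaloisSum.Basic
import Cfsg.Agent.Chars.SmallDegreeTI.Eigen
import Cfsg.Agent.Chars.Apps.RootSums
import Mathlib.LinearAlgebra.PID
import Mathlib.GroupTheory.Sylow

/-!
# Norm bounds for characters of defect zero at subgroups of prime order

The values of a character on a subgroup of prime order give a lower bound for the sum of their
squared absolute values, improved by a `2`-group centralising it when the character vanishes on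
the products.
-/

set_option autoImplicit false
set_option linter.style.haveILetI false

open Cfsg CfsgLib CfsgLib.Chars
open scoped ComplexConjugate

namespace CfsgLib.Blocks.SingleBlock

universe u

variable {G : Type u} [Group G] [Fintype G]

/-- The norm and the sum of a character on an abelian subgroup of order `q`: with the degree equal
to `f * q + r` the norm is at least `d ^ 2 + r (q - r)`, and at equality the sum is determined up to
one choice. -/
theorem sum_bounds {χ : G → ℂ} (hχ : IsCharacter G χ) (P : Subgroup G) [Fintype P]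
    [IsMulCommutative P] {d q f r : ℕ} (hd : χ 1 = d) (hq : Nat.card P = q)
    (hdr : d = f * q + r) :
    ∃ N m : ℕ, (∑ u : P, ‖χ u‖ ^ 2 = (q * N : ℝ)) ∧ ∑ u : P, χ u = q * m ∧
      ((d : ℤ) ^ 2 + r * ((q : ℤ) - r) ≤ q * N) ∧
      ((q * N : ℤ) = (d : ℤ) ^ 2 + r * ((q : ℤ) - r) → m = f ∨ m = f + 1) := by
  classical
  set φ : P → ℂ := fun u => χ u with hφ
  have hφc : IsCharacter P φ := isCharacter_restrict hχ P
  obtain ⟨c, hcφ, hc⟩ := exists_nat_coeff hφc
  have hlin : ∀ ψ : IrrCharacter P, (ψ : P → ℂ) 1 = 1 := fun ψ =>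
    map_one_eq_one_of_isMulCommutative ψ
  have hsum : ∑ ψ, c ψ = d := by
    have h := congrFun hcφ 1
    simp only [hφ, OneMemClass.coe_one, hd, Finset.sum_apply, Pi.smul_apply, smul_eq_mul, hlin,
      mul_one] at h
    exact_mod_cast h.symm
  have hcard : Fintype.card (IrrCharacter P) = q := by
    rw [← Nat.card_eq_fintype_card, ← hq]
    have := card_linear_irr (G := P)
    rw [Nat.card_congr (Equiv.subtypeUnivEquiv hlin), (commutator_eq_bot_iff_center_eq_top P).2 (Subgroup.center_eq_top_iff.2 inferInstance), Subgroup.index_bot] at this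
    exact this
  refine ⟨∑ ψ, c ψ ^ 2, c (oneChar P), ?_, ?_, ?_, ?_⟩
  · apply Complex.ofReal_injective
    rw [SmallDegreeTI.norm_sq_sum_eq φ, hq]
    push_cast
    congr 1
    conv_lhs => arg 1; rw [hcφ]
    rw [classInner_sum_left]
    refine Finset.sum_congr rfl fun ψ _ => ?_
    rw [classInner_smul_left, ← classInner_conj_symm φ, hc, map_natCast, sq]
  · have h := hc (oneChar P)
    rw [classInner, inv_mul_eq_iff_eq_mul₀ natCard_ne_zero, hq] at h
    rw [← h]
    simp [hφ]
  all_goals
    have h0 : ∀ ψ, 0 ≤ ((c ψ : ℤ) - f) * ((c ψ : ℤ) - f - 1) := fun ψ => by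
      rcases le_or_gt (c ψ : ℤ) f with h | h
      · exact mul_nonneg_of_nonpos_of_nonpos (by omega) (by omega)
      · exact mul_nonneg (by omega) (by omega)
    have e : ∑ ψ, ((c ψ : ℤ) - f) * ((c ψ : ℤ) - f - 1) =
        ((∑ ψ, c ψ ^ 2 : ℕ) : ℤ) - (2 * f + 1) * d + q * (f * (f + 1)) := by
      rw [← hsum, ← hcard, ← Finset.card_univ]
      push_cast
      rw [Finset.mul_sum, ← nsmul_eq_mul, ← Finset.sum_const, ← Finset.sum_sub_distrib,
        ← Finset.sum_add_distrib]
      exact Finset.sum_congr rfl fun ψ _ => by ring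
    have hds : (d : ℤ) ^ 2 + r * ((q : ℤ) - r) = q * ((2 * f + 1) * d - q * (f * (f + 1))) := by
      subst hdr
      push_cast
      ring
  · rw [hds]
    refine mul_le_mul_of_nonneg_left ?_ (Int.natCast_nonneg q)
    have := Finset.sum_nonneg fun ψ (_ : ψ ∈ Finset.univ) => h0 ψ
    linarith
  · intro h
    rw [hds] at h
    have hq0 : (q : ℤ) ≠ 0 := by rw [← hq]; exact_mod_cast Nat.card_pos.ne'
    have h1 := mul_left_cancel₀ hq0 h
    have := (Finset.sum_eq_zero_iff_of_nonneg fun ψ _ => h0 ψ).1 (by rw [e, h1]; ring)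
      (oneChar P) (Finset.mem_univ _)
    rcases mul_eq_zero.1 this with h2 | h2 <;> omega

/-- The average of a character over a centralising subgroup is a character. -/
theorem isCharacter_average {χ : G → ℂ} (hχ : IsCharacter G χ) (P V : Subgroup G) [Fintype V]
    (h : ∀ u ∈ P, ∀ v ∈ V, u * v = v * u) :
    IsCharacter P (fun u : P => (Nat.card V : ℂ)⁻¹ * ∑ v : V, χ ((u : G) * v)) := by
  obtain ⟨n, ρ, rfl⟩ := hχ
  let W : Submodule ℂ (Fin n → ℂ) :=
    { carrier := {w | ∀ x : V, ρ x w = w}
      zero_mem' := fun x => by simp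
      add_mem' := fun {a b} ha hb x => by rw [map_add, ha x, hb x]
      smul_mem' := fun c a ha x => by rw [map_smul, ha x] }
  have huW : ∀ u : P, ∀ w ∈ W, ρ (u : G) w ∈ W := by
    intro u w hw x
    rw [← Module.End.mul_apply, ← map_mul, ← h _ u.2 _ x.2, map_mul, Module.End.mul_apply, hw x]
  let σ : Representation ℂ P W :=
    { toFun := fun u => (ρ (u : G)).restrict (huW u)
      map_one' := LinearMap.ext fun w => Subtype.ext (by simp)
      map_mul' := fun a b => LinearMap.ext fun w => Subtype.ext (by simp) }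
  let E : Module.End ℂ (Fin n → ℂ) := (Nat.card V : ℂ)⁻¹ • ∑ x : V, ρ (x : G)
  have hEW : ∀ w, E w ∈ W := by
    intro w y
    simp only [E, LinearMap.smul_apply, LinearMap.sum_apply, map_smul, map_sum]
    congr 1
    refine Fintype.sum_equiv (Equiv.mulLeft y) _ _ fun x => ?_
    rw [← Module.End.mul_apply, ← map_mul]
    rfl
  have hEfix : ∀ w ∈ W, E w = w := by
    intro w hw
    simp only [E, LinearMap.smul_apply, LinearMap.sum_apply]
    rw [Finset.sum_congr rfl (fun x _ => hw x), Finset.sum_const, Finset.card_univ,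
      ← Nat.card_eq_fintype_card, ← Nat.cast_smul_eq_nsmul ℂ, smul_smul,
      inv_mul_cancel₀ natCard_ne_zero, one_smul]
  have key : σ.character = fun u : P => (Nat.card V : ℂ)⁻¹ * ∑ v : V, ρ.character ((u : G) * v) := by
    funext u
    have hf : ∀ w, (ρ (u : G) * E) w ∈ W := fun w => huW u _ (hEW w)
    have e : σ u = (ρ (u : G) * E).restrict (fun w _ => hf w) :=
      LinearMap.ext fun w => Subtype.ext (by
        show ρ (u : G) w = ρ (u : G) (E w)
        rw [hEfix _ w.2])
    rw [Representation.character, e, LinearMap.trace_restrict_eq_of_forall_mem W _ hf]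
    simp only [E, mul_smul_comm, Finset.mul_sum, map_smul, map_sum, smul_eq_mul,
      Representation.character, map_mul]
  rw [← key]
  exact isCharacter_character σ

/-- The improved bound: a character with degree prime to `q`, vanishing on the products of the
non-identity elements of `P` and `V`. -/
theorem card_sub_one_mul_sq_le {χ : G → ℂ} (hχ : IsCharacter G χ) (P V : Subgroup G) [Fintype P]
    {d q : ℕ} (hd : χ 1 = d) (hq : Nat.card P = q) (hqp : q.Prime) (hndvd : ¬ q ∣ d)
    (hPV : ∀ u ∈ P, ∀ v ∈ V, u * v = v * u)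
    (hvan : ∀ u ∈ P, ∀ v ∈ V, v ≠ 1 → χ (u * v) = 0) :
    ((q : ℝ) - 1) * (Nat.card V : ℝ) ^ 2 ≤ ∑ u : P, ‖χ u‖ ^ 2 - (d : ℝ) ^ 2 := by
  classical
  letI := Fintype.ofFinite V
  haveI : Fact q.Prime := ⟨hqp⟩
  haveI : IsCyclic P := isCyclic_of_prime_card hq
  haveI : IsMulCommutative P := ⟨⟨fun a b => (IsCyclic.commGroup.mul_comm a b)⟩⟩
  have hne : ∀ u : P, u ≠ 1 → χ (u : G) ≠ 0 := by
    intro u hu h0
    apply hndvd
    obtain ⟨N, m, -, hm, -, -⟩ := sum_bounds hχ P hd hq (f := d / q) (r := d % q)
      (by rw [mul_comm]; exact (Nat.div_add_mod d q).symm)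
    refine ⟨m, ?_⟩
    have hz : ∀ w : P, w ≠ 1 → χ (w : G) = 0 := by
      intro w hw
      obtain ⟨k, rfl⟩ : ∃ k : ℕ, u ^ k = w :=
        mem_powers_of_prime_card (g' := w) hq hu
      have hk : k.Coprime q := ((Fact.out : q.Prime).coprime_iff_not_dvd.2 fun hdv => hw (by
        obtain ⟨j, rfl⟩ := hdv
        rw [pow_mul, ← hq, pow_card_eq_one', one_pow])).symm
      exact GaloisSum.char_pow_eq_zero (isCharacter_restrict hχ P) (g := u) (hq ▸ hk) h0
    rw [Finset.sum_eq_single 1 (fun w _ hw => hz w hw) (by simp), OneMemClass.coe_one, hd] at hm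
    exact_mod_cast hm
  set ψ : P → ℂ := fun u => (Nat.card V : ℂ)⁻¹ * ∑ v : V, χ ((u : G) * v)
  have hψ : IsCharacter P ψ := isCharacter_average hχ P V hPV
  have hψv : ∀ u : P, u ≠ 1 → ψ u = (Nat.card V : ℂ)⁻¹ * χ (u : G) := by
    intro u _
    simp only [ψ]
    congr 1
    rw [Finset.sum_eq_single (1 : V) (fun v _ hv => hvan _ u.2 _ v.2 (by simpa using hv))
      (by simp), OneMemClass.coe_one, mul_one]
  have hS := GaloisSum.card_le_sum_norm_sq_char hψ (Finset.univ.erase 1)
    (fun x hx k hk => Finset.mem_erase.2 ⟨fun h1 => (Finset.mem_erase.1 hx).1 (by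
      have := (powCoprime hk.symm).injective (a₁ := x) (a₂ := 1)
      exact this (by simpa using h1)), Finset.mem_univ _⟩)
    (fun x hx => by
      have hx1 := (Finset.mem_erase.1 hx).1
      rw [hψv x hx1]
      exact mul_ne_zero (inv_ne_zero natCard_ne_zero) (hne x hx1))
  rw [Finset.card_erase_of_mem (Finset.mem_univ _), Finset.card_univ, ← Nat.card_eq_fintype_card,
    hq, Nat.cast_sub hqp.one_le, Nat.cast_one,
    Finset.sum_congr rfl (fun x hx => by rw [hψv x (Finset.mem_erase.1 hx).1, norm_mul, mul_pow,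
      norm_inv, Complex.norm_natCast, inv_pow]), ← Finset.mul_sum] at hS
  rw [Finset.sum_erase_eq_sub (Finset.mem_univ _), OneMemClass.coe_one, hd,
    Complex.norm_natCast] at hS
  have hV : (0 : ℝ) < (Nat.card V : ℝ) ^ 2 := by
    have : 0 < Nat.card V := Nat.card_pos
    positivity
  exact (le_inv_mul_iff₀ hV).1 hS |> fun h => by linarith [h]

open scoped Classical in
/-- A sum over the elements of order `q` when the Sylow `q`-subgroups have order `q`. -/
theorem sum_orderOf_eq {A : Type*} [AddCommGroup A] (q : ℕ) [Fact q.Prime]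
    [Fintype (Sylow q G)] (hq : ∀ P : Sylow q G, Nat.card P = q) (F : G → A) :
    ∑ x ∈ Finset.univ.filter (fun x : G => orderOf x = q), F x =
      ∑ P : Sylow q G, ((∑ u : (P : Subgroup G), F u) - F 1) := by
  classical
  have key : (Finset.univ.filter fun x : G => orderOf x = q) =
      Finset.univ.biUnion fun P : Sylow q G =>
        (Finset.univ.filter fun x : G => x ∈ (P : Subgroup G) ∧ x ≠ 1) := by
    ext x
    simp only [Finset.mem_filter, Finset.mem_univ, true_and, Finset.mem_biUnion]
    constructor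
    · intro hx
      have hp : IsPGroup q (Subgroup.zpowers x) :=
        IsPGroup.of_card (n := 1) (by rw [Nat.card_zpowers, hx, pow_one])
      obtain ⟨P, hP⟩ := hp.exists_le_sylow
      refine ⟨P, hP (Subgroup.mem_zpowers x), fun h => ?_⟩
      rw [h, orderOf_one] at hx
      exact (Fact.out : q.Prime).ne_one hx.symm
    · rintro ⟨P, hP, hx⟩
      have h := orderOf_dvd_natCard (⟨x, hP⟩ : (P : Subgroup G))
      rw [hq, Subgroup.orderOf_mk] at h
      exact ((Fact.out : q.Prime).eq_one_or_self_of_dvd _ h).resolve_left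
        fun h1 => hx (orderOf_eq_one_iff.1 h1)
  rw [key, Finset.sum_biUnion]
  · refine Finset.sum_congr rfl fun P _ => ?_
    rw [eq_sub_iff_add_eq, add_comm]
    rw [← Finset.sum_subtype (Finset.univ.filter fun x : G => x ∈ (P : Subgroup G))
      (p := fun x => x ∈ (P : Subgroup G)) (fun x => by simp) F,
      ← Finset.add_sum_erase _ F (show (1 : G) ∈ Finset.univ.filter fun x : G =>
        x ∈ (P : Subgroup G) by simp)]
    congr 2
    ext x
    simp [and_comm]
  · intro P _ Q _ hPQ
    rw [Function.onFun, Finset.disjoint_left]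
    intro x hxP hxQ
    simp only [Finset.mem_filter, Finset.mem_univ, true_and] at hxP hxQ
    apply hPQ
    have hzp : ∀ S : Sylow q G, x ∈ (S : Subgroup G) → Subgroup.zpowers x = (S : Subgroup G) := by
      intro S hS
      refine Subgroup.eq_of_le_of_card_ge (Subgroup.zpowers_le.2 hS) ?_
      have h := orderOf_dvd_natCard (⟨x, hS⟩ : (S : Subgroup G))
      rw [hq, Subgroup.orderOf_mk] at h
      rcases (Fact.out : q.Prime).eq_one_or_self_of_dvd _ h with h1 | h1
      · exact absurd (orderOf_eq_one_iff.1 h1) hxP.2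
      · rw [Nat.card_zpowers, h1, hq]
    exact Sylow.ext ((hzp P hxP.1).symm.trans (hzp Q hxQ.1))

end CfsgLib.Blocks.SingleBlock
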