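import Cfsg.Agent.Blocks.SingleBlock.Criterion
import Cfsg.Agent.Blocks.SingleBlock.NormBound
import Cfsg.Agent.Blocks.SingleBlock.MathieuLocal

/-!
# Common part of the single 2-block theorems for `M22` and `M24`

The criterion holds at every involution, and a character of 2-defect zero would have too large a
norm on the elements of large prime order.
-/

set_option autoImplicit false
set_option linter.style.haveILetI false

open Cfsg CfsgLib CfsgLib.Chars CfsgLib.Golay CfsgLib.Mathieu CfsgLib.Mathieu.BlockLocal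
open scoped Pointwise

namespace CfsgLib.Blocks.SingleBlock

variable {H : Subgroup (Equiv.Perm GolayPt)}

/-- Inside `M24` the criterion holds at each involution whose octad stabiliser lies in the group,
the whole group being allowed for fixed-point-free involutions. -/
theorem exists_core (hH : H ≤ M24)
    (hoct : ∀ t ∈ H, orderOf t = 2 → fixedPts t ∈ octads → octPointFix (fixedPts t) ≤ H)
    (hfree : ∀ t ∈ H, orderOf t = 2 → (∀ p, t p ≠ p) → centM24 t ≤ H)
    (t : H) (ht : orderOf t = 2) :
    ∃ Q : Subgroup (Subgroup.centralizer ({t} : Set H)), Q.Normal ∧ IsPGroup 2 Q ∧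
      Subgroup.centralizer (Q : Set (Subgroup.centralizer ({t} : Set H))) ≤ Q := by
  classical
  set s : Equiv.Perm GolayPt := (t : Equiv.Perm GolayPt)
  have hs2 : orderOf s = 2 := (Subgroup.orderOf_coe t).trans ht
  have hsH : s ∈ H := t.2
  set φ : Subgroup.centralizer ({t} : Set H) →* Equiv.Perm GolayPt :=
    H.subtype.comp (Subgroup.subtype _)
  have hφ : Function.Injective φ := H.subtype_injective.comp Subtype.val_injective
  have hφH : ∀ c, φ c ∈ H := fun c => (c : H).2
  have hφt : ∀ c, φ c * s = s * φ c := fun c =>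
    congrArg Subtype.val (Subgroup.mem_centralizer_singleton_iff.1 c.2)
  have hlift : ∀ e ∈ H, e * s = s * e → ∃ c, φ c = e := fun e he hes =>
    ⟨⟨⟨e, he⟩, Subgroup.mem_centralizer_singleton_iff.2 (Subtype.ext hes)⟩, rfl⟩
  by_cases h0 : (fixedPts s).card = 0
  · have hfp : ∀ p, s p ≠ p := fun p hp => by
      have := Finset.card_pos.2 ⟨p, mem_fixedPts.2 hp⟩
      omega
    obtain ⟨K, hKC, hK2, hKn, hKc⟩ := exists_core_free (hH hsH) hs2 hfp
    have hin : ∀ c, φ c ∈ centM24 s := fun c => mem_centM24.2 ⟨hH (hφH c), hφt c⟩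
    set K' := K.comap φ
    haveI : K'.Normal := ⟨fun k hk c => by
      show φ (c * k * c⁻¹) ∈ K
      rw [map_mul, map_mul, map_inv]
      exact hKn _ (hin c) _ hk⟩
    haveI : (Subgroup.centralizer (K' : Set (Subgroup.centralizer ({t} : Set H)))).Normal :=
      Subgroup.normal_centralizer
    have hK'2 : IsPGroup 2 K' := hK2.comap_of_injective φ hφ
    have hC2 : IsPGroup 2
        (Subgroup.centralizer (K' : Set (Subgroup.centralizer ({t} : Set H)))) := by
      refine IsPGroup.of_card (n := (Nat.card (Subgroup.centralizer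
        (K' : Set (Subgroup.centralizer ({t} : Set H))))).primeFactorsList.length) ?_
      refine Nat.eq_prime_pow_of_unique_prime_dvd Nat.card_pos.ne' fun {r} hr hd => ?_
      by_contra hr2
      haveI : Fact r.Prime := ⟨hr⟩
      obtain ⟨x, hx⟩ := exists_prime_orderOf_dvd_card' r hd
      rw [← Subgroup.orderOf_coe, ← orderOf_injective φ hφ] at hx
      refine hKc _ (hin x) r hr hr2 hx fun k hk => ?_
      obtain ⟨c, rfl⟩ := hlift k (hfree s hsH hs2 hfp (hKC hk)) (mem_centM24.1 (hKC hk)).2
      rw [← map_mul, ← map_mul]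
      exact congrArg φ (Subgroup.mem_centralizer_iff.1 x.2 c hk).symm
    refine ⟨K' ⊔ Subgroup.centralizer (K' : Set (Subgroup.centralizer ({t} : Set H))), inferInstance,
      hK'2.to_sup_of_normal_right hC2, ?_⟩
    exact (Subgroup.centralizer_le (SetLike.coe_subset_coe.2 le_sup_left)).trans le_sup_right
  · have ho := fixedPts_mem_octads (hH hsH) hs2 h0
    have hcore := exists_core_octad (hH hsH) ho
    have hEH := hoct s hsH hs2 ho
    refine ⟨(octPointFix (fixedPts s)).comap φ, ⟨fun e he c => ?_⟩,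
      IsPGroup.comap_of_injective ?_ φ hφ, fun g hg => ?_⟩
    · show φ (c * e * c⁻¹) ∈ octPointFix (fixedPts s)
      rw [map_mul, map_mul, map_inv]
      exact ((hcore (φ c) (hH (hφH c)) (hφt c)).1 _ he).2
    · exact IsPGroup.of_card (n := 4) ((octPointFix_spec ho).1.trans (by norm_num))
    · refine (hcore (φ g) (hH (hφH g)) (hφt g)).2 fun e he => ?_
      obtain ⟨c, rfl⟩ := hlift e (hEH he) ((hcore 1 (one_mem _) (by simp)).1 e he).1
      rw [← map_mul, ← map_mul]
      exact congrArg φ (Subgroup.mem_centralizer_iff.1 hg c he)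

/-- Sylow subgroups of prime order. -/
theorem card_sylow_prime {G : Type*} [Group G] [Finite G] {q : ℕ} [hq : Fact q.Prime]
    (h1 : q ∣ Nat.card G) (h2 : ¬ q ^ 2 ∣ Nat.card G) (P : Sylow q G) : Nat.card P = q := by
  rw [P.card_eq_multiplicity]
  have ha := (Nat.Prime.pow_dvd_iff_le_factorization hq.out Nat.card_pos.ne' (k := 1)).1
    (by rwa [pow_one])
  have hb : ¬ 2 ≤ (Nat.card G).factorization q := fun h =>
    h2 ((Nat.Prime.pow_dvd_iff_le_factorization hq.out Nat.card_pos.ne').2 h)
  rw [show (Nat.card G).factorization q = 1 by omega, pow_one]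

/-- The centraliser of a Sylow subgroup of prime order, in a group inside `M24`. -/
theorem card_centralizer_sylow (hH : H ≤ M24) {q f : ℕ} [hq : Fact q.Prime] (h5 : 5 ≤ q)
    (hf : f < 9) (hfq : (24 - f) % q = 0) (h9 : 9 ≤ q + f) (R : Finset GolayPt)
    (hR : ∀ p ∈ R, ∀ g ∈ H, g p = p) (P : Sylow q H) (hP : Nat.card P = q) :
    Nat.card (Subgroup.centralizer ((P : Subgroup H) : Set H)) ∣
      (f - R.card).factorial * (24 - f) := by
  classical
  obtain ⟨x, hx⟩ := exists_prime_orderOf_dvd_card' q (dvd_of_eq hP.symm)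
  obtain ⟨y, hy⟩ : ∃ y : H, y = x := ⟨_, rfl⟩
  have hgen : ((P : Subgroup H) : Set H) = (Subgroup.zpowers y : Set H) := by
    rw [hy, Subgroup.eq_of_le_of_card_ge (Subgroup.zpowers_le.2 x.2)
      (by rw [Nat.card_zpowers, Subgroup.orderOf_coe, hx, hP])]
  have ho : orderOf ((x : H) : Equiv.Perm GolayPt) = q := by
    rw [Subgroup.orderOf_coe, Subgroup.orderOf_coe, hx]
  have hxM := hH (x : H).2
  have hfix := card_fixedPts_big hxM hq.out ho hf hfq h5
  obtain ⟨m, hm, -, hdvd⟩ := card_centralizer_dvd hH hq.out ho (hfix.symm ▸ h9)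
    (fixedPts ((x : H) : Equiv.Perm GolayPt) \ R) Finset.sdiff_subset
    (fun g hg p hp hp' => hR p (by simpa [hp] using hp') g hg)
  have hsub : R ⊆ fixedPts ((x : H) : Equiv.Perm GolayPt) := fun p hp =>
    mem_fixedPts.2 (hR p hp _ (x : H).2)
  rw [Finset.card_sdiff_of_subset hsub, hfix] at hdvd
  rw [hfix] at hm
  have e : Nat.card (Subgroup.centralizer ((P : Subgroup H) : Set H)) =
      Nat.card ↥(H ⊓ Subgroup.centralizer {((x : H) : Equiv.Perm GolayPt)}) := by
    rw [← Subgroup.card_map_of_injective H.subtype_injective]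
    refine Nat.card_congr (MulEquiv.subgroupCongr ?_).toEquiv
    rw [← hy, hgen, Subgroup.zpowers_eq_closure, Subgroup.centralizer_closure]
    ext g
    constructor
    · rintro ⟨g, hg, rfl⟩
      exact ⟨g.2, Subgroup.mem_centralizer_singleton_iff.2
        (congrArg Subtype.val (Subgroup.mem_centralizer_singleton_iff.1 hg))⟩
    · rintro ⟨hg, hg'⟩
      exact ⟨⟨g, hg⟩, Subgroup.mem_centralizer_singleton_iff.2
        (Subtype.ext (Subgroup.mem_centralizer_singleton_iff.1 hg') ), rfl⟩
  rw [e]
  exact hdvd.trans (mul_dvd_mul_left _ hm)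

/-- The number of Sylow subgroups of prime order, with the order of their normalisers. -/
theorem exists_count {G : Type*} [Group G] [Finite G] {q : ℕ} [hq : Fact q.Prime]
    (P : Sylow q G) (hP : Nat.card P = q) {B D : ℕ}
    (hC : Nat.card (Subgroup.centralizer ((P : Subgroup G) : Set G)) ∣ B)
    (hD : (q - 1) * B = q * D) :
    ∃ k, k ∣ D ∧ Nat.card (Sylow q G) * (q * k) = Nat.card G ∧ Nat.card (Sylow q G) % q = 1 ∧
      q * k ∣ (q - 1) * Nat.card (Subgroup.centralizer ((P : Subgroup G) : Set G)) := by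
  have hdvd := card_normalizer_dvd (P : Subgroup G) hP
  obtain ⟨k, hk⟩ : q ∣ Nat.card (Subgroup.normalizer ((P : Subgroup G) : Set G)) := by
    exact dvd_trans (dvd_of_eq hP.symm)
      (Subgroup.card_dvd_of_le (Subgroup.le_normalizer (H := (P : Subgroup G))))
  rw [hk] at hdvd
  refine ⟨k, ?_, ?_, ?_, hdvd⟩
  · have h := hdvd.trans (mul_dvd_mul_left (q - 1) hC)
    rw [hD] at h
    exact (Nat.mul_dvd_mul_iff_left hq.out.pos).1 h
  · rw [← hk, P.card_eq_index_normalizer, mul_comm]
    exact Subgroup.card_mul_index (Subgroup.normalizer ((P : Subgroup G) : Set G))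
  · exact Eq.trans (card_sylow_modEq_one q G) (Nat.mod_eq_of_lt hq.out.one_lt)

section

variable {G : Type*} [Group G] [Fintype G]

/-- The sum over elements of prime order bounded through each Sylow subgroup. -/
theorem le_sum_orderOf {χ : G → ℂ} {d q : ℕ} [Fact q.Prime] (hd : χ 1 = d)
    (hq : ∀ P : Sylow q G, Nat.card P = q) {E : ℝ}
    (hE : ∀ (P : Sylow q G) [Fintype (P : Subgroup G)],
      (d : ℝ) ^ 2 + E ≤ ∑ u : (P : Subgroup G), ‖χ u‖ ^ 2) :
    (Nat.card (Sylow q G) : ℝ) * E ≤
      ∑ x ∈ Finset.univ.filter (fun x : G => orderOf x = q), ‖χ x‖ ^ 2 := by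
  classical
  haveI : Fintype (Sylow q G) := Fintype.ofFinite _
  rw [sum_orderOf_eq q hq (fun x => ‖χ x‖ ^ 2), Nat.card_eq_fintype_card, ← Finset.card_univ,
    ← nsmul_eq_mul, ← Finset.sum_const]
  refine Finset.sum_le_sum fun P _ => ?_
  have := hE P
  rw [hd, Complex.norm_natCast]
  linarith

/-- The elements of several orders. -/
theorem sum_biUnion_orders (Q : Finset ℕ) {A : Type*} [AddCommMonoid A] (F : G → A)
    [DecidableEq G] (h1 : 1 ∉ Q) :
    ∑ x ∈ insert 1 (Q.biUnion fun q => Finset.univ.filter fun x : G => orderOf x = q), F x =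
      F 1 + ∑ q ∈ Q, ∑ x ∈ Finset.univ.filter (fun x : G => orderOf x = q), F x := by
  rw [Finset.sum_insert (by simp [h1]), Finset.sum_biUnion]
  intro a _ b _ hab
  rw [Function.onFun, Finset.disjoint_left]
  intro x hx hx'
  exact hab ((Finset.mem_filter.1 hx).2.symm.trans (Finset.mem_filter.1 hx').2)

/-- A defect zero character is zero on elements of even order, with degree a multiple of the
2-part of the order and square at most the order. -/
theorem defect_zero_data (χ : IrrCharacter G) {a m : ℕ} (hG : Nat.card G = 2 ^ a * m)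
    (hm : ¬ 2 ∣ m) (h : 2 ^ (Nat.card G).factorization 2 ∣ charDegree (χ : G → ℂ)) :
    ∃ c : ℕ, (χ : G → ℂ) 1 = ((2 ^ a * c : ℕ) : ℂ) ∧ c ∣ m ∧ 0 < c ∧ 2 ^ a * c * c ≤ m ∧
      ∀ g : G, 2 ∣ orderOf g → (χ : G → ℂ) g = 0 := by
  have ha : (Nat.card G).factorization 2 = a := by
    rw [hG, Nat.factorization_mul (by positivity) (by rintro rfl; simp at hm),
      Finsupp.add_apply, Nat.Prime.factorization_pow Nat.prime_two,
      Nat.factorization_eq_zero_of_not_dvd hm]
    simp
  rw [ha] at h
  obtain ⟨c, hc⟩ := h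
  have hpos : 0 < c := by
    rcases Nat.eq_zero_or_pos c with rfl | h
    · exact absurd (hc.trans (mul_zero _)) (charDegree_pos χ).ne'
    · exact h
  refine ⟨c, ?_, ?_, hpos, ?_, fun g hg =>
    Brauer.eq_zero_of_defect_zero Nat.prime_two χ hG hm (hc ▸ dvd_mul_right _ _) hg⟩
  · rw [← hc, coe_charDegree]
  · have := charDegree_dvd_card χ
    rw [hG, hc] at this
    exact (Nat.mul_dvd_mul_iff_left (by positivity)).1 this
  · have hsq := GaloisSum.sum_norm_sq_of_isIrrCharacter χ.2
    have hle : ‖(χ : G → ℂ) 1‖ ^ 2 ≤ (Nat.card G : ℝ) := hsq ▸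
      Finset.single_le_sum (f := fun g => ‖(χ : G → ℂ) g‖ ^ 2) (fun g _ => by positivity)
        (Finset.mem_univ 1)
    rw [← coe_charDegree, Complex.norm_natCast, hc, hG] at hle
    have hle' : (2 ^ a * c) ^ 2 ≤ 2 ^ a * m := by exact_mod_cast hle
    exact Nat.le_of_mul_le_mul_left (by linarith [hle']) (pow_pos (by norm_num : 0 < 2) a)

end

end CfsgLib.Blocks.SingleBlock
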